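import Cfsg.Agent.MaxSub.OrthOverfield.Basic

/-!
Overgroups in `Ω` of the root elements of the unitary group of a quadratic overfield.
-/

set_option autoImplicit false

namespace Cfsg.Agent.MaxSub.OrthOverfield

open QuadraticMap Module Cfsg.Agent.Classical Cfsg.Agent.OrthGen

universe u v

variable {F : Type u} [Field F] {V : Type v} [AddCommGroup V] [Module F V]

/-- The vectors whose Siegel transformations at `p` lie in `M`. -/
def rootSpace {Q : QuadraticForm F V} (M : Subgroup (OQ Q)) {p : V} (hp : Q p = 0) :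
    Submodule F V where
  carrier := {a | polar Q p a = 0 ∧
    ∀ (t : F) (h : polar Q p (t • a) = 0), siegel Q hp h ∈ M}
  add_mem' {a b} ha hb := by
    refine ⟨by rw [polar_add_right, ha.1, hb.1, add_zero], fun t h => ?_⟩
    have hta : polar Q p (t • a) = 0 := by rw [polar_smul_right, ha.1, smul_zero]
    have htb : polar Q p (t • b) = 0 := by rw [polar_smul_right, hb.1, smul_zero]
    have := mul_mem (ha.2 t hta) (hb.2 t htb)
    rwa [siegel_mul, siegel_congr Q _ _ hp h rfl (smul_add t a b).symm] at this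
  zero_mem' := ⟨by simp, fun t h => by
    convert one_mem M using 1
    ext v
    simp⟩
  smul_mem' c a ha := by
    refine ⟨by rw [polar_smul_right, ha.1, smul_zero], fun t h => ?_⟩
    have hta : polar Q p ((t * c) • a) = 0 := by rw [polar_smul_right, ha.1, smul_zero]
    have := ha.2 (t * c) hta
    rwa [siegel_congr Q _ _ hp h rfl (mul_smul t c a)] at this

/-- The standing hypotheses on an overgroup. -/
structure Over {Q : QuadraticForm F V} (J : V →ₗ[F] V) (α β : F) (M : Subgroup (OQ Q)) :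
    Prop where
  str : OStr Q J α β
  root : ∀ (u : V) (hu : Q u = 0), J u ∈ rootSpace M hu

variable {Q : QuadraticForm F V} {M : Subgroup (OQ Q)}

lemma self_mem_rootSpace {p : V} (hp : Q p = 0) : p ∈ rootSpace M hp := by
  refine ⟨by rw [polar_self, hp, smul_zero], fun t h => ?_⟩
  convert one_mem M using 1
  ext v
  simp [hp, QuadraticMap.map_smul, smul_smul, mul_comm]

lemma map_rootSpace {p q a : V} (hp : Q p = 0) (hq : Q q = 0) {g : OQ Q} (hg : g ∈ M)
    (hgp : g.1 p = q) (ha : a ∈ rootSpace M hp) : g.1 a ∈ rootSpace M hq := by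
  refine ⟨by rw [← hgp, OQ_polar, ha.1], fun t h => ?_⟩
  have hta : polar Q p (t • a) = 0 := by rw [polar_smul_right, ha.1, smul_zero]
  have := mul_mem (mul_mem hg (ha.2 t hta)) (inv_mem hg)
  rw [siegel_conj] at this
  rwa [siegel_congr Q _ _ hq h hgp (LinearEquiv.map_smul _ t a)] at this

/-- Siegel transformations of orthogonal singular vectors may be swapped. -/
lemma mem_rootSpace_symm {p q : V} (hp : Q p = 0) (hq : Q q = 0) (h : q ∈ rootSpace M hp) :
    p ∈ rootSpace M hq := by
  refine ⟨by rw [polar_comm, h.1], fun t h' => ?_⟩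
  have h2 : polar Q p ((-t) • q) = 0 := by rw [polar_smul_right, h.1, smul_zero]
  convert h.2 (-t) h2 using 1
  ext v
  simp [hp, hq, polar_smul_left, QuadraticMap.map_smul]
  module

variable {J : V →ₗ[F] V} {α β : F}

/-- Elements moving `p⊥` off the orthogonal of the line of `p`. -/
lemma exists_mover [FiniteDimensional F V] [Finite F] (hB : BNondeg Q) (hn : 10 ≤ finrank F V)
    (hJ : OStr Q J α β) {p : V} (hp : Q p = 0) (hp0 : p ≠ 0) :
    ∃ a b y : V, ∃ (ha : Q a = 0) (hab : polar Q a b = 0), Q b = 0 ∧ a ≠ 0 ∧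
      b ∈ perpSub Q (kline J a) ∧ y ∈ perpSub Q (kline J p) ∧ (siegel Q ha hab).1 p = p ∧
      polar Q (J p) ((siegel Q ha hab).1 y) ≠ 0 := by
  have hJp : J p ∉ Submodule.span F {p} := fun h => by
    obtain ⟨c, hc⟩ := Submodule.mem_span_singleton.1 h
    exact neg_ne_zero.2 one_ne_zero
      (hJ.ind hp0 (a := c) (b := -1) (by rw [hc, neg_smul, one_smul, add_neg_cancel])).2
  obtain ⟨a, ha, haq, hae⟩ := exists_sing_ne (Q := Q) (X := perpSub Q (Submodule.span F {p}))
    (e := J p) (fun n hn => by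
      obtain ⟨c, rfl⟩ := Submodule.mem_span_singleton.1 hn
      show polar Q (c • p) (J p) = 0
      rw [polar_smul_left, hJ.self, hp, mul_zero, smul_zero])
    (by rw [hJ.scale, hp, mul_zero]) (exists_polar_ne hB hJp) (Q.polarBilin (J p))
    (exists_polar_ne hB hJp)
  have hpa : polar Q p a = 0 := ha p (Submodule.mem_span_singleton_self p)
  have ha0 : a ≠ 0 := fun h => hae (by simp [h])
  obtain ⟨b, hb, hbS, hbq⟩ := exists_sing_perp_not_mem_of_pair hB hn (kline J p ⊔ kline J a)
    (finrank_sup_kline_le J p a) (Submodule.mem_sup_left (J_mem_kline J p))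
    (Submodule.mem_sup_right (self_mem_kline J a)) hae
  have hbp : b ∈ perpSub Q (kline J p) := fun n hn' => hb n (Submodule.mem_sup_left hn')
  have hba : b ∈ perpSub Q (kline J a) := fun n hn' => hb n (Submodule.mem_sup_right hn')
  have hab : polar Q a b = 0 := (OStr.mem_perp_kline.1 hba).1
  obtain ⟨y, hy, -, hby⟩ := exists_sing_perp hB hn (kline J p)
    (by have := finrank_kline_le J p; omega) (fun h => hbS (Submodule.mem_sup_left h))
  refine ⟨a, b, y, haq, hab, hbq, ha0, hba, hy, ?_, ?_⟩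
  · rw [siegel_apply, polar_comm Q a p, hpa, polar_comm Q b p, (OStr.mem_perp_kline.1 hbp).1]
    simp
  · rw [siegel_apply, polar_sub_right, polar_sub_right, polar_add_right, polar_smul_right,
      polar_smul_right, polar_smul_right, (OStr.mem_perp_kline.1 hy).2,
      (OStr.mem_perp_kline.1 hbp).2, hbq]
    simpa using mul_ne_zero hby hae

namespace Over

variable (hO : Over J α β M)
include hO

lemma delta {p : V} (hp : Q p = 0) {z s : V} (hz : z ∈ rootSpace M hp) (hs : Q s = 0)
    (hsp : s ∈ perpSub Q (kline J p)) :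
    polar Q s z • J s - polar Q (J s) z • s ∈ rootSpace M hp := by
  have hJ := hO.str
  obtain ⟨h1, h2⟩ := OStr.mem_perp_kline.1 (hJ.perp_symm hsp)
  have hg := (hO.root s hs).2 1 (by rw [one_smul, hJ.self, hs, mul_zero])
  have hm := map_rootSpace hp hp hg (by simp [h1, h2]) hz
  have := (rootSpace M hp).sub_mem hm hz
  simpa [hJ.scale, hs, add_sub_assoc, add_sub_cancel_left] using this

variable [FiniteDimensional F V] [Finite F] (hB : BNondeg Q) (hn : 10 ≤ finrank F V)
include hB hn

lemma seed {p : V} (hp : Q p = 0) {z s : V} (hz : z ∈ rootSpace M hp) (hzq : Q z = 0)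
    (hzp : z ∈ perpSub Q (kline J p)) (hs : Q s = 0) (hsp : s ∈ perpSub Q (kline J p))
    (hsz : s ∉ perpSub Q (kline J z)) : kline J s ≤ rootSpace M hp := by
  have hJ := hO.str
  obtain ⟨A, hA⟩ : ∃ A, A = polar Q z s := ⟨_, rfl⟩
  obtain ⟨C, hC⟩ : ∃ C, C = polar Q z (J s) := ⟨_, rfl⟩
  have hne : A ≠ 0 ∨ C ≠ 0 := by
    by_contra hc
    push Not at hc
    refine hsz (OStr.mem_perp_kline.2 ⟨hA ▸ hc.1, ?_⟩)
    rw [hJ.left, ← hA, ← hC, hc.1, hc.2, mul_zero, sub_zero]
  obtain ⟨D, hD⟩ : ∃ D, D = A * (β * A + α * C) - C * C := ⟨_, rfl⟩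
  have hD0 : D ≠ 0 := by
    have := hJ.norm_ne (a := -C) (b := A) (by rw [neg_ne_zero]; tauto)
    intro h
    exact this (by linear_combination hD - h)
  obtain ⟨r, hr⟩ : ∃ r, r = ((β * A + α * C) / D) • s + (-C / D) • J s := ⟨_, rfl⟩
  have hrs : r ∈ kline J s := mem_kline.2 ⟨_, _, hr.symm⟩
  have hzr : polar Q z r = 1 := by
    rw [hr, polar_add_right, polar_smul_right, polar_smul_right, ← hA, ← hC, smul_eq_mul,
      smul_eq_mul]
    field_simp
    linear_combination -hD
  have hzJr : polar Q z (J r) = 0 := by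
    rw [hr, hJ.J_comb, polar_add_right, polar_smul_right, polar_smul_right, ← hA, ← hC,
      smul_eq_mul, smul_eq_mul]
    field_simp
    ring
  have hJzr : polar Q (J z) r = α := by rw [hJ.left, hzr, hzJr, mul_one, sub_zero]
  have hrq : Q r = 0 := hJ.sing hs hrs
  have hrp : r ∈ perpSub Q (kline J p) := hJ.kline_le_perp hsp hrs
  have hzz' : polar Q z z = 0 := by rw [polar_self, hzq, smul_zero]
  have hrr : polar Q r r = 0 := by rw [polar_self, hrq, smul_zero]
  obtain ⟨hpz, hJpz⟩ := OStr.mem_perp_kline.1 hzp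
  obtain ⟨hpr, hJpr⟩ := OStr.mem_perp_kline.1 hrp
  obtain ⟨e, he, heq⟩ := exists_anisotropic_perp hB hn (kline J p ⊔ kline J z ⊔ kline J r) (by
    have := Submodule.finrank_add_le_finrank_add_finrank (kline J p ⊔ kline J z) (kline J r)
    have := finrank_sup_kline_le J p z
    have := finrank_kline_le J r
    omega) (R := kline J p) (le_trans (finrank_kline_le J p) (by norm_num)) fun w hwS hw => by
      obtain ⟨w', hw', c, hc, rfl⟩ := Submodule.mem_sup.1 hwS
      obtain ⟨u, hu, d, hd, rfl⟩ := Submodule.mem_sup.1 hw'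
      obtain ⟨x₁, x₂, rfl⟩ := mem_kline.1 hd
      obtain ⟨y₁, y₂, rfl⟩ := mem_kline.1 hc
      obtain ⟨u₁, u₂, rfl⟩ := mem_kline.1 hu
      have hz' : z ∈ kline J p ⊔ kline J z ⊔ kline J r :=
        Submodule.mem_sup_left (Submodule.mem_sup_right (self_mem_kline J z))
      have hJz' : J z ∈ kline J p ⊔ kline J z ⊔ kline J r :=
        Submodule.mem_sup_left (Submodule.mem_sup_right (J_mem_kline J z))
      have hr' : r ∈ kline J p ⊔ kline J z ⊔ kline J r :=
        Submodule.mem_sup_right (self_mem_kline J r)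
      have hJr' : J r ∈ kline J p ⊔ kline J z ⊔ kline J r :=
        Submodule.mem_sup_right (J_mem_kline J r)
      have hrJz : polar Q r (J z) = α := by rw [polar_comm, hJzr]
      have hzJp : polar Q z (J p) = 0 := by rw [polar_comm, hJpz]
      have hrJp : polar Q r (J p) = 0 := by rw [polar_comm, hJpr]
      have hJzp : polar Q (J z) p = 0 := by rw [hJ.left, polar_comm Q z p, hpz, hzJp]; ring
      have hJrp : polar Q (J r) p = 0 := by rw [hJ.left, polar_comm Q r p, hpr, hrJp]; ring
      have e1 := hw z hz'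
      have e2 := hw (J z) hJz'
      have e3 := hw r hr'
      have e4 := hw (J r) hJr'
      simp only [polarBilin_apply_apply, polar_add_right, polar_smul_right, smul_eq_mul,
        hJ.J_J, polar_comm Q z p, hpz, hzJp, hzz', hJ.self, hzq, hzr, hzJr, mul_zero, zero_add,
        add_zero] at e1
      simp only [polarBilin_apply_apply, polar_add_right, polar_smul_right, smul_eq_mul,
        hJ.J_J, hJzp, polar_comm Q z p, hpz, hzz', polar_comm Q (J z) z, hJ.self, hzq, hzr, hJzr,
        mul_zero, zero_add, add_zero] at e2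
      simp only [polarBilin_apply_apply, polar_add_right, polar_smul_right, smul_eq_mul,
        hJ.J_J, polar_comm Q r p, hpr, hrJp, hrr, hJ.self, hrq, polar_comm Q r z, hzr, hrJz,
        mul_zero, zero_add, add_zero] at e3
      simp only [polarBilin_apply_apply, polar_add_right, polar_smul_right, smul_eq_mul,
        hJ.J_J, hJrp, polar_comm Q r p, hpr, hrr, polar_comm Q (J r) r, hJ.self, hrq,
        polar_comm Q (J r) z, hzJr, polar_comm Q r z, hzr, mul_zero, zero_add, add_zero] at e4
      have hβ := hJ.beta_ne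
      have hy₁ : y₁ = 0 := by linear_combination e1
      subst hy₁
      have hy₂ : y₂ = 0 := (mul_eq_zero.1 (show y₂ * β = 0 by linear_combination -e2)).resolve_right hβ
      have hx₂ : x₂ = 0 := (mul_eq_zero.1 (show x₂ * β = 0 by linear_combination -e4)).resolve_right hβ
      subst hy₂ hx₂
      have hx₁ : x₁ = 0 := by linear_combination e3
      subst hx₁
      exact mem_kline.2 ⟨u₁, u₂, by simp⟩
  have hep : e ∈ perpSub Q (kline J p) := fun n hn' =>
    he n (Submodule.mem_sup_left (Submodule.mem_sup_left hn'))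
  have hez : e ∈ perpSub Q (kline J z) := fun n hn' =>
    he n (Submodule.mem_sup_left (Submodule.mem_sup_right hn'))
  have her : e ∈ perpSub Q (kline J r) := fun n hn' => he n (Submodule.mem_sup_right hn')
  obtain ⟨w, hw⟩ : ∃ w, w = (-Q e) • z + r + e := ⟨_, rfl⟩
  obtain ⟨hze, hJze⟩ := OStr.mem_perp_kline.1 hez
  obtain ⟨hre, hJre⟩ := OStr.mem_perp_kline.1 her
  have hzz : polar Q z z = 0 := by rw [polar_self, hzq, smul_zero]
  have hzJe : polar Q z (J e) = 0 := by
    have := hJ.left z e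
    rw [hze, hJze] at this
    linear_combination this
  have hrJe : polar Q r (J e) = 0 := by
    have := hJ.left r e
    rw [hre, hJre] at this
    linear_combination this
  have hwq : Q w = 0 := by
    rw [hw, qf_add, qf_add, QuadraticMap.map_smul, polar_add_left, polar_smul_left,
      polar_smul_left, hzq, hrq, hzr, hze, hre]
    simp
  have hwp : w ∈ perpSub Q (kline J p) := by
    rw [hw]
    exact add_mem (add_mem (Submodule.smul_mem _ _ hzp) hrp) hep
  have hwz : polar Q w z = 1 := by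
    rw [polar_comm, hw, polar_add_right, polar_add_right, polar_smul_right, hzz, hzr, hze]
    simp
  have hJwz : polar Q (J w) z = 0 := by
    rw [polar_comm, hw, map_add, map_add, map_smul, polar_add_right, polar_add_right,
      polar_smul_right, hJ.self, hzq, hzJr, hzJe]
    simp
  have h1 : J w ∈ rootSpace M hp := by
    have := hO.delta hp hz hwq hwp
    rwa [hwz, hJwz, one_smul, zero_smul, sub_zero] at this
  have h2 : J r ∈ rootSpace M hp := by
    have := hO.delta hp hz hrq hrp
    rwa [polar_comm Q r z, hzr, polar_comm Q (J r) z, hzJr, one_smul, zero_smul, sub_zero]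
      at this
  have h3 := hO.delta hp h1 hrq hrp
  have hrJw : polar Q r (J w) = -(Q e * α) := by
    rw [hw, map_add, map_add, map_smul, polar_add_right, polar_add_right, polar_smul_right,
      polar_comm Q r (J z), hJzr, hJ.self, hrq, hrJe]
    simp
  have hrw : polar Q r w = -Q e := by
    rw [hw, polar_add_right, polar_add_right, polar_smul_right, polar_comm Q r z, hzr, hre,
      polar_self, hrq]
    simp
  rw [hrJw, hJ.J_J, hrw] at h3
  have h4 : r ∈ rootSpace M hp := by
    have := (rootSpace M hp).smul_mem (-(Q e * β))⁻¹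
      ((rootSpace M hp).add_mem h3 ((rootSpace M hp).smul_mem (Q e * α) h2))
    convert this using 1
    have hβ := hJ.beta_ne
    match_scalars
    · field_simp
    · field_simp
      ring
  have hr0 : r ≠ 0 := fun h => by simp [h] at hzr
  exact hJ.kline_eq hrs hr0 ▸ kline_le h4 h2

lemma sing_mem {p : V} (hp : Q p = 0) {z : V} (hz : z ∈ rootSpace M hp) (hzq : Q z = 0)
    (hzp : z ∈ perpSub Q (kline J p)) (hzn : z ∉ kline J p) :
    perpSub Q (kline J p) ≤ rootSpace M hp := by
  have hJ := hO.str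
  have hkp : kline J p ≤ rootSpace M hp := kline_le (self_mem_rootSpace hp) (hO.root p hp)
  obtain ⟨s, hs, hsq, hzs⟩ := exists_sing_perp hB hn (kline J p)
    (by have := finrank_kline_le J p; omega) hzn
  have hks := hO.seed hB hn hp hz hzq hzp hsq hs fun h => hzs (OStr.mem_perp_kline.1 h).1
  have hkz := hO.seed hB hn hp (hks (self_mem_kline J s)) hsq hs hzq hzp
    fun h => hzs (by rw [polar_comm]; exact (OStr.mem_perp_kline.1 h).1)
  refine perp_le_of_sing hB hn (kline J p) (by have := finrank_kline_le J p; omega)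
    fun y hy hyq => ?_
  by_cases hzy : y ∈ perpSub Q (kline J z)
  swap
  · exact hO.seed hB hn hp hz hzq hzp hyq hy hzy (self_mem_kline J y)
  by_cases hzS : z ∈ kline J p ⊔ kline J y
  · obtain ⟨u, hu, v, hv, huv⟩ := Submodule.mem_sup.1 hzS
    have hv0 : v ≠ 0 := fun h => hzn (by rw [← huv, h, add_zero]; exact hu)
    have hv' : v = z - u := by rw [← huv, add_sub_cancel_left]
    have : kline J v ≤ rootSpace M hp := by
      refine kline_le ?_ ?_ <;> rw [hv']
      · exact sub_mem (hkz (self_mem_kline J z)) (hkp hu)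
      · rw [map_sub]
        exact sub_mem (hkz (J_mem_kline J z)) (hkp (hJ.J_mem hu))
    exact this (hJ.kline_eq hv hv0 ▸ self_mem_kline J y)
  have hzX : z ∈ perpSub Q (kline J p ⊔ kline J y) := fun n hn' => by
    obtain ⟨a, ha, b, hb, rfl⟩ := Submodule.mem_sup.1 hn'
    show polar Q (a + b) z = 0
    rw [polar_add_left, show polar Q a z = 0 from hzp a ha,
      show polar Q b z = 0 from hJ.perp_symm hzy b hb, add_zero]
  obtain ⟨r, hr, hrq, hzr⟩ := exists_sing_ne hzX hzq (exists_polar_ne hB hzS) (Q.polarBilin z)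
    (exists_polar_ne hB hzS)
  have hrp : r ∈ perpSub Q (kline J p) := fun n hn' => hr n (Submodule.mem_sup_left hn')
  have hry : polar Q y r = 0 := hr y (Submodule.mem_sup_right (self_mem_kline J y))
  have h1 := hO.seed hB hn hp hz hzq hzp hrq hrp
    (fun h => hzr (OStr.mem_perp_kline.1 h).1) (self_mem_kline J r)
  have h2 := hO.seed hB hn hp hz hzq hzp (s := y + r)
    (by rw [qf_add, hyq, hrq, hry, add_zero, add_zero]) (add_mem hy hrp)
    (fun h => hzr (by
      have := (OStr.mem_perp_kline.1 h).1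
      rwa [polar_add_right, (OStr.mem_perp_kline.1 hzy).1, zero_add] at this))
    (self_mem_kline J (y + r))
  simpa using sub_mem h2 h1

lemma propagate {p q : V} (hp : Q p = 0) (hp0 : p ≠ 0) (hq : Q q = 0)
    (hqp : q ∈ perpSub Q (kline J p)) (hqn : q ∉ kline J p)
    (hW : perpSub Q (kline J p) ≤ rootSpace M hp) :
    perpSub Q (kline J q) ≤ rootSpace M hq :=
  hO.sing_mem hB hn hq (mem_rootSpace_symm hp hq (hW hqp)) hp (hO.str.perp_symm hqp)
    (hO.str.not_mem_symm hp0 hqn)

lemma all_perp {p : V} (hp : Q p = 0) (hp0 : p ≠ 0)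
    (hW : perpSub Q (kline J p) ≤ rootSpace M hp) {q : V} (hq : Q q = 0) (hq0 : q ≠ 0) :
    perpSub Q (kline J q) ≤ rootSpace M hq := by
  by_cases hqp : q ∈ perpSub Q (kline J p) ∧ q ∉ kline J p
  · exact hO.propagate hB hn hp hp0 hq hqp.1 hqp.2 hW
  obtain ⟨r, hr, hrn, hrq⟩ : ∃ r ∈ perpSub Q (kline J p ⊔ kline J q),
      r ∉ kline J p ⊔ kline J q ∧ Q r = 0 := by
    by_cases hqk : q ∈ kline J p
    · refine exists_sing_perp_not_mem hB hn _ ?_
      rw [hO.str.kline_eq hqk hq0, sup_idem]
      exact le_trans (finrank_kline_le J p) (by norm_num)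
    · obtain ⟨n, hn', hnq⟩ : ∃ n ∈ kline J p, polar Q n q ≠ 0 := by
        by_contra hno
        push Not at hno
        exact hqp ⟨hno, hqk⟩
      exact exists_sing_perp_not_mem_of_pair hB hn _ (finrank_sup_kline_le J p q)
        (Submodule.mem_sup_left hn') (Submodule.mem_sup_right (self_mem_kline J q)) hnq
  have hrp : r ∈ perpSub Q (kline J p) := fun n hn' => hr n (Submodule.mem_sup_left hn')
  have hrq' : r ∈ perpSub Q (kline J q) := fun n hn' => hr n (Submodule.mem_sup_right hn')
  have hr0 : r ≠ 0 := fun h => hrn (h ▸ zero_mem _)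
  have h1 := hO.propagate hB hn hp hp0 hrq hrp (fun h => hrn (Submodule.mem_sup_left h)) hW
  exact hO.propagate hB hn hrq hr0 hq (hO.str.perp_symm hrq')
    (hO.str.not_mem_symm hq0 fun h => hrn (Submodule.mem_sup_right h)) h1

lemma commutator_le_of_perp {p : V} (hp : Q p = 0) (hp0 : p ≠ 0)
    (hW : perpSub Q (kline J p) ≤ rootSpace M hp) : commutator (OQ Q) ≤ M := by
  have hJ := hO.str
  have hall : ∀ q, Q q = 0 → q ≠ 0 → q ∈ GeoClasses.siegelCentres Q M := by
    intro q hq hq0
    have hWq := hO.all_perp hB hn hp hp0 hW hq hq0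
    obtain ⟨a, b, y, ha, hab, -, ha0, hba, hy, hgq, hne⟩ := exists_mover hB hn hJ hq hq0
    have hg : siegel Q ha hab ∈ M := by
      have := (hO.all_perp hB hn hp hp0 hW ha ha0 hba).2 1 (by rwa [one_smul])
      rwa [siegel_congr Q _ _ ha hab rfl (one_smul F b)] at this
    have hgy := map_rootSpace hq hq hg hgq (hWq hy)
    refine ⟨hq, fun x hx => ?_⟩
    have hxW : x ∈ rootSpace M hq := by
      obtain ⟨c, hc⟩ : ∃ c, c = polar Q (J q) x / polar Q (J q) ((siegel Q ha hab).1 y) :=
        ⟨_, rfl⟩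
      have h1 : x - c • (siegel Q ha hab).1 y ∈ perpSub Q (kline J q) := by
        refine OStr.mem_perp_kline.2 ⟨?_, ?_⟩
        · rw [polar_sub_right, polar_smul_right, hx, hgy.1, smul_zero, sub_zero]
        · rw [polar_sub_right, polar_smul_right, smul_eq_mul, hc, div_mul_cancel₀ _ hne, sub_self]
      simpa using add_mem (hWq h1) ((rootSpace M hq).smul_mem c hgy)
    have := hxW.2 1 (by rwa [one_smul])
    rwa [siegel_congr Q _ _ hq hx rfl (one_smul F x)] at this
  obtain ⟨f, hf, hpf⟩ := Forms.exists_singular_partner hB hp hp0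
  exact GeoClasses.commutator_le_of_centre_pair hB (by omega) (hall p hp hp0)
    (hall f hf fun h => by simp [h] at hpf) (by rw [polar_comm, hpf]; exact one_ne_zero)

omit hO in
lemma eq_scalar_of_lines (hJ : OStr Q J α β) (T : V →ₗ[F] V)
    (h : ∀ u, Q u = 0 → T u ∈ kline J u) : ∃ a b : F, ∀ x, T x = a • x + b • J x := by
  obtain ⟨u₀, -, hu₀n, hu₀q⟩ := exists_sing_perp_not_mem hB hn (⊥ : Submodule F V) (by simp)
  have hu₀0 : u₀ ≠ 0 := fun h => hu₀n (h ▸ zero_mem _)
  obtain ⟨a, b, hab⟩ := mem_kline.1 (h u₀ hu₀q)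
  have hstep : ∀ {u v : V}, Q u = 0 → Q v = 0 → u ≠ 0 → v ∈ perpSub Q (kline J u) →
      v ∉ kline J u → T u = a • u + b • J u → T v = a • v + b • J v := by
    intro u v hu hv hu0 hvu hvn hTu
    obtain ⟨c, d, hcd⟩ := mem_kline.1 (h v hv)
    obtain ⟨e, f, hef⟩ := mem_kline.1 (h (u + v)
      (by rw [qf_add, hu, hv, (OStr.mem_perp_kline.1 hvu).1, add_zero, add_zero]))
    rw [map_add T, hTu, ← hcd, map_add J] at hef
    have e1 : (c - e) • v + (d - f) • J v = (e - a) • u + (f - b) • J u := by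
      linear_combination (norm := module) -hef
    have hz : (c - e) • v + (d - f) • J v = 0 := by
      by_contra hne
      have h3 : (c - e) • v + (d - f) • J v ∈ kline J u := mem_kline.2 ⟨_, _, e1.symm⟩
      have h4 := hJ.kline_eq (mem_kline.2 ⟨_, _, rfl⟩) hne
      exact hvn (kline_le h3 (hJ.J_mem h3) (h4 ▸ self_mem_kline J v))
    have hv0 : v ≠ 0 := fun h => hvn (h ▸ zero_mem _)
    obtain ⟨h5, h6⟩ := hJ.ind hv0 hz
    obtain ⟨h7, h8⟩ := hJ.ind hu0 (e1.symm.trans hz)
    rw [← hcd, sub_eq_zero.1 h5, sub_eq_zero.1 h6, sub_eq_zero.1 h7, sub_eq_zero.1 h8]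
  have hsing : ∀ v, Q v = 0 → T v = a • v + b • J v := by
    intro v hv
    rcases eq_or_ne v 0 with rfl | hv0
    · simp
    by_cases hvu : v ∈ perpSub Q (kline J u₀) ∧ v ∉ kline J u₀
    · exact hstep hu₀q hv hu₀0 hvu.1 hvu.2 hab.symm
    obtain ⟨r, hr, hrn, hrq⟩ : ∃ r ∈ perpSub Q (kline J u₀ ⊔ kline J v),
        r ∉ kline J u₀ ⊔ kline J v ∧ Q r = 0 := by
      by_cases hvk : v ∈ kline J u₀
      · refine exists_sing_perp_not_mem hB hn _ ?_
        rw [hJ.kline_eq hvk hv0, sup_idem]
        exact le_trans (finrank_kline_le J u₀) (by norm_num)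
      · obtain ⟨n, hn', hnq⟩ : ∃ n ∈ kline J u₀, polar Q n v ≠ 0 := by
          by_contra hno
          push Not at hno
          exact hvu ⟨hno, hvk⟩
        exact exists_sing_perp_not_mem_of_pair hB hn _ (finrank_sup_kline_le J u₀ v)
          (Submodule.mem_sup_left hn') (Submodule.mem_sup_right (self_mem_kline J v)) hnq
    have h1 : r ∈ perpSub Q (kline J u₀) := fun n hn' => hr n (Submodule.mem_sup_left hn')
    have h2 : r ∈ perpSub Q (kline J v) := fun n hn' => hr n (Submodule.mem_sup_right hn')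
    have hr0 : r ≠ 0 := fun h => hrn (h ▸ zero_mem _)
    exact hstep hrq hv hr0 (hJ.perp_symm h2)
      (hJ.not_mem_symm hv0 fun h => hrn (Submodule.mem_sup_right h))
      (hstep hu₀q hrq hu₀0 h1 (fun h => hrn (Submodule.mem_sup_left h)) hab.symm)
  refine ⟨a, b, fun x => ?_⟩
  have hle := perp_le_of_sing hB hn (⊥ : Submodule F V) (by simp)
    (W := LinearMap.ker (T - a • LinearMap.id - b • J)) fun y _ hy => by
      simp [hsing y hy]
  have := hle (x := x) fun n hn' => by
    rw [(Submodule.mem_bot F).1 hn']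
    exact polar_zero_left Q x
  rw [LinearMap.mem_ker] at this
  simp at this
  linear_combination (norm := module) this

/-- An element outside the normaliser forces all of `Ω`. -/
theorem commutator_le {g : OQ Q} (hg : g ∈ M)
    (hout : ¬ ∃ a b : F, ∀ x, g.1 (J x) = a • g.1 x + b • J (g.1 x)) :
    commutator (OQ Q) ≤ M := by
  have hJ := hO.str
  by_cases hall : ∀ u, Q u = 0 → J (g.1 u) ∈ Submodule.span F {g.1 u, g.1 (J u)}
  · exfalso
    obtain ⟨a, b, hab⟩ := eq_scalar_of_lines hB hn hJ
      (g.1.symm.toLinearMap ∘ₗ J ∘ₗ g.1.toLinearMap) fun u hu => by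
        obtain ⟨s, t, hst⟩ := Submodule.mem_span_pair.1 (hall u hu)
        refine mem_kline.2 ⟨s, t, ?_⟩
        apply g.1.injective
        simp [← hst, map_add, map_smul]
    have hab' : ∀ x, J (g.1 x) = a • g.1 x + b • g.1 (J x) := fun x => by
      have := congrArg g.1 (hab x)
      simpa using this
    obtain ⟨u₀, -, hu₀n, -⟩ := exists_sing_perp_not_mem hB hn (⊥ : Submodule F V) (by simp)
    have hu₀0 : u₀ ≠ 0 := fun h => hu₀n (h ▸ zero_mem _)
    have hb : b ≠ 0 := by
      rintro rfl
      have h0 : g.1 u₀ ≠ 0 := fun h => hu₀0 (g.1.map_eq_zero_iff.1 h)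
      exact neg_ne_zero.2 one_ne_zero (hJ.ind h0 (a := a) (b := -1) (by
        rw [hab' u₀]; module)).2
    refine hout ⟨-a / b, b⁻¹, fun x => ?_⟩
    rw [hab' x]
    match_scalars
    · field_simp
    · field_simp
      ring
  push Not at hall
  obtain ⟨u, hu, hgu⟩ := hall
  have hu0 : u ≠ 0 := fun h => hgu (by simp [h])
  obtain ⟨p, hp⟩ : ∃ p, p = g.1 u := ⟨_, rfl⟩
  obtain ⟨w, hw⟩ : ∃ w, w = g.1 (J u) := ⟨_, rfl⟩
  rw [← hp, ← hw] at hgu
  have hpq : Q p = 0 := by rw [hp, OQ_map_app, hu]
  have hp0 : p ≠ 0 := fun h => hu0 (g.1.map_eq_zero_iff.1 (hp ▸ h))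
  have hwW : w ∈ rootSpace M hpq := hw ▸ map_rootSpace hu hpq hg hp.symm (hO.root u hu)
  have hwn : w ∉ kline J p := by
    intro h
    obtain ⟨c, d, hcd⟩ := mem_kline.1 h
    by_cases hd : d = 0
    · rw [hd, zero_smul, add_zero, hp, hw, ← map_smul] at hcd
      exact neg_ne_zero.2 one_ne_zero (hJ.ind hu0 (a := c) (b := -1)
        (by rw [g.1.injective hcd, neg_smul, one_smul, add_neg_cancel])).2
    · refine hgu (Submodule.mem_span_pair.2 ⟨-c / d, d⁻¹, ?_⟩)
      rw [← hcd]
      match_scalars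
      · field_simp
        ring
      · field_simp
  obtain ⟨s₁, hs₁, hs₁q, hws₁⟩ := exists_sing_perp hB hn (kline J p)
    (by have := finrank_kline_le J p; omega) hwn
  obtain ⟨s, hs, hsq, hws, hsn⟩ : ∃ s, s ∈ perpSub Q (kline J p) ∧ Q s = 0 ∧
      polar Q w s ≠ 0 ∧ s ∉ kline J p := by
    by_cases h : s₁ ∈ kline J p
    · obtain ⟨e, he, hen, heq⟩ := exists_sing_perp_not_mem_of_pair hB hn (kline J p ⊔ kline J w)
        (finrank_sup_kline_le J p w) (Submodule.mem_sup_right (self_mem_kline J w))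
        (Submodule.mem_sup_left h) hws₁
      have hep : e ∈ perpSub Q (kline J p) := fun n hn' => he n (Submodule.mem_sup_left hn')
      refine ⟨s₁ + e, add_mem hs₁ hep, ?_, ?_,
        fun h' => hen (Submodule.mem_sup_left ?_)⟩
      · rw [qf_add, hs₁q, heq, show polar Q s₁ e = 0 from hep s₁ h, add_zero, add_zero]
      · rw [polar_add_right,
          show polar Q w e = 0 from he w (Submodule.mem_sup_right (self_mem_kline J w)), add_zero]
        exact hws₁
      · simpa using sub_mem h' h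
    · exact ⟨s₁, hs₁, hs₁q, hws₁, h⟩
  have hs0 : s ≠ 0 := fun h => hsn (h ▸ zero_mem _)
  obtain ⟨z, hz⟩ : ∃ z, z = polar Q s w • J s - polar Q (J s) w • s := ⟨_, rfl⟩
  have hzW : z ∈ rootSpace M hpq := hz ▸ hO.delta hpq hwW hsq hs
  have hzs : z ∈ kline J s := mem_kline.2 ⟨-polar Q (J s) w, polar Q s w, by rw [hz]; module⟩
  have hz0 : z ≠ 0 := fun h => hws (by
    rw [polar_comm]
    exact (hJ.ind hs0 (a := -polar Q (J s) w) (b := polar Q s w)
      (by rw [← h, hz]; module)).2)
  refine hO.commutator_le_of_perp hB hn hpq hp0 (hO.sing_mem hB hn hpq hzW (hJ.sing hsq hzs)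
    (hJ.kline_le_perp hs hzs) fun h => hsn ?_)
  exact kline_le h (hJ.J_mem h) (hJ.kline_eq hzs hz0 ▸ self_mem_kline J s)

end Over

end Cfsg.Agent.MaxSub.OrthOverfield
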