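import Cfsg.Agent.GeoClasses.OrthNondeg

/-!
Quadratic spaces with a semisimilar quadratic overfield structure: lines over the overfield and
singular vectors.
-/

set_option autoImplicit false

namespace Cfsg.Agent.MaxSub.OrthOverfield

open QuadraticMap Module Cfsg.Agent.Classical Cfsg.Agent.OrthGen

universe u v

variable {F : Type u} [Field F] {V : Type v} [AddCommGroup V] [Module F V]

/-- `J` generates a quadratic field extension acting by similitudes of `Q`. -/
structure OStr (Q : QuadraticForm F V) (J : V →ₗ[F] V) (α β : F) : Prop where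
  irr : ∀ x : F, x * x ≠ α * x + β
  sq : ∀ x, J (J x) = α • J x + β • x
  scale : ∀ x, Q (J x) = -β * Q x
  self : ∀ x, polar Q x (J x) = α * Q x

/-- The line over the overfield through `x`. -/
def kline (J : V →ₗ[F] V) (x : V) : Submodule F V := Submodule.span F {x, J x}

lemma mem_kline {J : V →ₗ[F] V} {x z : V} :
    z ∈ kline J x ↔ ∃ a b : F, a • x + b • J x = z :=
  Submodule.mem_span_pair

lemma self_mem_kline (J : V →ₗ[F] V) (x : V) : x ∈ kline J x :=
  Submodule.subset_span (Set.mem_insert _ _)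

lemma J_mem_kline (J : V →ₗ[F] V) (x : V) : J x ∈ kline J x :=
  Submodule.subset_span (Set.mem_insert_of_mem _ rfl)

lemma kline_le {J : V →ₗ[F] V} {x : V} {S : Submodule F V} (h1 : x ∈ S) (h2 : J x ∈ S) :
    kline J x ≤ S :=
  Submodule.span_le.2 fun z hz => by
    rcases hz with rfl | rfl
    · exact h1
    · exact h2

lemma finrank_kline_le (J : V →ₗ[F] V) (x : V) : finrank F (kline J x) ≤ 2 := by
  classical
  have h0 := finrank_span_finset_le_card (R := F) ({x, J x} : Finset V)
  unfold Set.finrank at h0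
  rw [Finset.coe_pair] at h0
  exact h0.trans Finset.card_le_two

lemma finrank_sup_kline_le [FiniteDimensional F V] (J : V →ₗ[F] V) (x y : V) :
    finrank F ↥(kline J x ⊔ kline J y) ≤ 4 := by
  have := Submodule.finrank_add_le_finrank_add_finrank (kline J x) (kline J y)
  have := finrank_kline_le J x
  have := finrank_kline_le J y
  omega

namespace OStr

variable {Q : QuadraticForm F V} {J : V →ₗ[F] V} {α β : F} (hJ : OStr Q J α β)
include hJ

lemma beta_ne : β ≠ 0 := fun h => hJ.irr 0 (by simp [h])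

lemma adj (x y : V) : polar Q (J x) y + polar Q x (J y) = α * polar Q x y := by
  have h := hJ.self (x + y)
  rw [map_add, polar_add_left, polar_add_right, polar_add_right, qf_add, hJ.self, hJ.self,
    polar_comm Q y (J x)] at h
  linear_combination h

lemma left (x y : V) : polar Q (J x) y = α * polar Q x y - polar Q x (J y) := by
  linear_combination hJ.adj x y

lemma J_J (x y : V) : polar Q (J x) (J y) = -β * polar Q x y := by
  simp only [polar, ← map_add J, hJ.scale]
  ring

lemma norm_ne {a b : F} (h : a ≠ 0 ∨ b ≠ 0) : a * a + α * (a * b) - β * (b * b) ≠ 0 := by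
  intro e
  by_cases hb : b = 0
  · subst hb
    simp at e h
    exact h e
  · apply hJ.irr (-a / b)
    field_simp
    linear_combination e

lemma J_comb (x : V) (a b : F) :
    J (a • x + b • J x) = (b * β) • x + (a + b * α) • J x := by
  rw [map_add, map_smul, map_smul, hJ.sq]
  module

lemma ind {x : V} (hx : x ≠ 0) {a b : F} (h : a • x + b • J x = 0) : a = 0 ∧ b = 0 := by
  by_contra hne
  have hN := hJ.norm_ne (a := a) (b := b) (by tauto)
  have h2 : J (a • x + b • J x) = 0 := by rw [h, map_zero]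
  rw [hJ.J_comb] at h2
  have h3 : (a * a + α * (a * b) - β * (b * b)) • x = 0 := by
    linear_combination (norm := module) (a + b * α) • h - b • h2
  exact hx ((smul_eq_zero.1 h3).resolve_left hN)

lemma J_mem {x z : V} (hz : z ∈ kline J x) : J z ∈ kline J x := by
  obtain ⟨a, b, rfl⟩ := mem_kline.1 hz
  exact mem_kline.2 ⟨_, _, (hJ.J_comb x a b).symm⟩

lemma kline_eq {x z : V} (hz : z ∈ kline J x) (hz0 : z ≠ 0) : kline J z = kline J x := by
  refine le_antisymm (kline_le hz (hJ.J_mem hz)) ?_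
  obtain ⟨a, b, rfl⟩ := mem_kline.1 hz
  have hN := hJ.norm_ne (a := a) (b := b) (by
    by_contra hc
    push Not at hc
    exact hz0 (by simp [hc.1, hc.2]))
  have hx : x ∈ kline J (a • x + b • J x) := by
    have e : (a + b * α) • (a • x + b • J x) + (-b) • J (a • x + b • J x) =
        (a * a + α * (a * b) - β * (b * b)) • x := by
      rw [hJ.J_comb]
      module
    have := (kline J (a • x + b • J x)).smul_mem (a * a + α * (a * b) - β * (b * b))⁻¹
      (mem_kline.2 ⟨_, _, e⟩)
    rwa [inv_smul_smul₀ hN] at this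
  exact kline_le hx (hJ.J_mem hx)

lemma not_mem_symm {x z : V} (hx : x ≠ 0) (hz : z ∉ kline J x) : x ∉ kline J z := fun h =>
  hz (hJ.kline_eq h hx ▸ self_mem_kline J z)

lemma sing {x z : V} (hx : Q x = 0) (hz : z ∈ kline J x) : Q z = 0 := by
  obtain ⟨a, b, rfl⟩ := mem_kline.1 hz
  rw [qf_add, QuadraticMap.map_smul, QuadraticMap.map_smul, polar_smul_left, polar_smul_right,
    hJ.self, hJ.scale, hx]
  simp

omit hJ in
lemma mem_perp_kline {x z : V} :
    z ∈ perpSub Q (kline J x) ↔ polar Q x z = 0 ∧ polar Q (J x) z = 0 := by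
  refine ⟨fun h => ⟨h x (self_mem_kline J x), h _ (J_mem_kline J x)⟩, fun h w hw => ?_⟩
  obtain ⟨a, b, rfl⟩ := mem_kline.1 hw
  show polar Q (a • x + b • J x) z = 0
  rw [polar_add_left, polar_smul_left, polar_smul_left, h.1, h.2, smul_zero, smul_zero, add_zero]

lemma perp_symm {x z : V} (h : z ∈ perpSub Q (kline J x)) : x ∈ perpSub Q (kline J z) := by
  obtain ⟨h1, h2⟩ := mem_perp_kline.1 h
  refine mem_perp_kline.2 ⟨by rw [polar_comm]; exact h1, ?_⟩
  have := hJ.left x z
  rw [h1, h2, mul_zero, zero_sub, eq_comm, neg_eq_zero] at this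
  rw [polar_comm]
  exact this

lemma kline_le_perp {x z : V} (h : z ∈ perpSub Q (kline J x)) :
    kline J z ≤ perpSub Q (kline J x) := by
  obtain ⟨h1, h2⟩ := mem_perp_kline.1 h
  refine kline_le h (mem_perp_kline.2 ⟨?_, by rw [hJ.J_J, h1, mul_zero]⟩)
  have := hJ.left x z
  rw [h1, h2, mul_zero, zero_sub, eq_comm, neg_eq_zero] at this
  exact this

lemma self_perp {x : V} (hx : Q x = 0) : x ∈ perpSub Q (kline J x) :=
  mem_perp_kline.2 ⟨by rw [polar_self, hx, smul_zero],
    by rw [polar_comm, hJ.self, hx, mul_zero]⟩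

end OStr

section singular

variable [FiniteDimensional F V] {Q : QuadraticForm F V}

lemma perp_perp (hB : BNondeg Q) (S : Submodule F V) : perpSub Q (perpSub Q S) = S := by
  refine (Submodule.eq_of_le_of_finrank_eq (fun s hs n hn => ?_) ?_).symm
  · show polar Q n s = 0
    rw [polar_comm]
    exact hn s hs
  · rw [finrank_orthogonal_polar hB, finrank_orthogonal_polar hB]
    have := S.finrank_le
    omega

lemma exists_polar_ne (hB : BNondeg Q) {S : Submodule F V} {z : V} (hz : z ∉ S) :
    ∃ y ∈ perpSub Q S, polar Q z y ≠ 0 := by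
  by_contra h
  push Not at h
  refine hz (perp_perp hB S ▸ fun n hn => ?_)
  show polar Q n z = 0
  rw [polar_comm]
  exact h n hn

/-- A singular vector not annihilated by a functional. -/
lemma exists_sing_ne {X : Submodule F V} {e : V} (he : e ∈ X) (heq : Q e = 0)
    (hy : ∃ y ∈ X, polar Q e y ≠ 0) (φ : V →ₗ[F] F) (hφ : ∃ x ∈ X, φ x ≠ 0) :
    ∃ s ∈ X, Q s = 0 ∧ φ s ≠ 0 := by
  by_contra hcon
  push Not at hcon
  have hoff : ∀ y ∈ X, polar Q e y ≠ 0 → φ y = 0 := by
    intro y hyX hey
    have h := hcon (y + (-(Q y) / polar Q e y) • e) (X.add_mem hyX (X.smul_mem _ he)) (by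
      rw [qf_add, QuadraticMap.map_smul, polar_smul_right, polar_comm Q y e, heq, smul_eq_mul,
        smul_eq_mul]
      field_simp
      ring)
    rw [map_add, map_smul, hcon e he heq, smul_zero, add_zero] at h
    exact h
  obtain ⟨y, hyX, hey⟩ := hy
  obtain ⟨x, hxX, hx⟩ := hφ
  refine hx ?_
  by_cases hex : polar Q e x = 0
  · have h := hoff (x + y) (X.add_mem hxX hyX) (by rw [polar_add_right, hex, zero_add]; exact hey)
    rwa [map_add, hoff y hyX hey, add_zero] at h
  · exact hoff x hxX hex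

variable [Finite F] (hB : BNondeg Q) (hn : 10 ≤ finrank F V)
include hB hn

lemma exists_sing_perp_not_mem (S : Submodule F V) (hS : finrank F S ≤ 3) :
    ∃ e ∈ perpSub Q S, e ∉ S ∧ Q e = 0 := by
  obtain ⟨C, hC⟩ := S.exists_isCompl
  have h1 := finrank_orthogonal_polar hB S
  have h2 := Submodule.finrank_add_eq_of_isCompl hC
  have h3 := Submodule.finrank_sup_add_finrank_inf_eq (perpSub Q S) C
  have h4 := Submodule.finrank_le (perpSub Q S ⊔ C)
  obtain ⟨e, he, he0, heq⟩ := Forms.exists_singular_vector_of_three_le Q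
    (S := perpSub Q S ⊓ C) (by omega)
  exact ⟨e, he.1, fun heS => he0 ((Submodule.disjoint_def.1 hC.disjoint) e heS he.2), heq⟩

lemma exists_sing_perp (S : Submodule F V) (hS : finrank F S ≤ 3) {z : V} (hz : z ∉ S) :
    ∃ s ∈ perpSub Q S, Q s = 0 ∧ polar Q z s ≠ 0 := by
  obtain ⟨e, he, heS, heq⟩ := exists_sing_perp_not_mem hB hn S hS
  obtain ⟨s, hs, hsq, hsz⟩ := exists_sing_ne he heq (exists_polar_ne hB heS) (Q.polarBilin z)
    (exists_polar_ne hB hz)
  exact ⟨s, hs, hsq, hsz⟩

lemma exists_sing_perp_not_mem_of_pair (S : Submodule F V) (hS : finrank F S ≤ 4) {u v : V}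
    (hu : u ∈ S) (hv : v ∈ S) (huv : polar Q u v ≠ 0) :
    ∃ e ∈ perpSub Q S, e ∉ S ∧ Q e = 0 := by
  obtain ⟨R, hR⟩ : ∃ R, R = S ⊓ perpSub Q S := ⟨_, rfl⟩
  have hlt : R < S := hR ▸ lt_of_le_of_ne inf_le_left fun he =>
    huv ((he.ge hv).2 u hu)
  have hR3 := Submodule.finrank_lt_finrank_of_lt hlt
  obtain ⟨C, hC⟩ := R.exists_isCompl
  have h1 := finrank_orthogonal_polar hB S
  have h2 := Submodule.finrank_add_eq_of_isCompl hC
  have h3 := Submodule.finrank_sup_add_finrank_inf_eq (perpSub Q S) C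
  have h4 := Submodule.finrank_le (perpSub Q S ⊔ C)
  obtain ⟨e, he, he0, heq⟩ := Forms.exists_singular_vector_of_three_le Q
    (S := perpSub Q S ⊓ C) (by omega)
  exact ⟨e, he.1, fun heS => he0 ((Submodule.disjoint_def.1 hC.disjoint) e
    (hR ▸ ⟨heS, he.1⟩) he.2), heq⟩

lemma exists_anisotropic_perp (S : Submodule F V) (hS : finrank F S ≤ 6) {R : Submodule F V}
    (hR : finrank F R ≤ 3) (hrad : ∀ e ∈ S, e ∈ perpSub Q S → e ∈ R) :
    ∃ e ∈ perpSub Q S, Q e ≠ 0 := by
  by_contra h
  push Not at h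
  have hle : perpSub Q S ≤ R := fun e he => by
    refine hrad e ?_ he
    rw [← perp_perp hB S]
    exact fun n hn' => Forms.polar_eq_zero_of_totallySingular h hn' he
  have := Submodule.finrank_mono hle
  rw [finrank_orthogonal_polar hB] at this
  omega

/-- Singular vectors of `S⊥` span it. -/
lemma perp_le_of_sing (S : Submodule F V) (hS : finrank F S ≤ 3) {W : Submodule F V}
    (h : ∀ y ∈ perpSub Q S, Q y = 0 → y ∈ W) : perpSub Q S ≤ W := by
  intro x hx
  by_contra hxW
  obtain ⟨φ, hφx, hφW⟩ := Submodule.exists_dual_map_eq_bot_of_notMem hxW inferInstance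
  obtain ⟨e, he, heS, heq⟩ := exists_sing_perp_not_mem hB hn S hS
  obtain ⟨s, hs, hsq, hsφ⟩ := exists_sing_ne he heq (exists_polar_ne hB heS) φ ⟨x, hx, hφx⟩
  have : φ s ∈ W.map φ := ⟨s, h s hs hsq, rfl⟩
  rw [hφW] at this
  exact hsφ (by simpa using this)

end singular

end Cfsg.Agent.MaxSub.OrthOverfield
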