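import Cfsg.Agent.MaxSub.OrthOverfield.Setup

/-!
Normalisers of semisimilar quadratic overfields are maximal in `Ω`, in dimension at least ten.
-/

set_option autoImplicit false
open Cfsg
open scoped Matrix

namespace Cfsg.Agent.MaxSub.OrthOverfield

theorem omegaGL_overfield_maximal {F : Type*} [Field F] [Fintype F] {ι : Type} [Fintype ι] [DecidableEq ι] (hn : 10 ≤ Fintype.card ι) {Q : (ι → F) → F} (hQ : Cfsg.Geo.IsNondegenerateQuadraticForm Q) {K : Subalgebra F (Matrix ι ι F)} (hK : Cfsg.Geo.IsFieldSubalgebra 2 K) (hac : Cfsg.Geo.IsAdjointClosedFor (QuadraticMap.polar Q) K) (hnsa : ¬ Cfsg.Geo.IsSelfAdjointFor (QuadraticMap.polar Q) K) (hsc : ∀ k ∈ K, ∃ c : F, ∀ v : ι → F, Q (Matrix.mulVec k v) = c * Q v) : Cfsg.Geo.IsMaximalIn (Cfsg.Geo.omegaGL Q) (Cfsg.Geo.subalgebraNormalizer K ⊓ Cfsg.Geo.omegaGL Q) := by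
  classical
  have : Nonempty ι := Fintype.card_pos_iff.1 (by omega)
  obtain ⟨a, α, β, haK, hJ, hspan⟩ := MaxSub.OrthOverfield.exists_ostr hQ hK hac hnsa hsc
  set Qf := GeoClasses.toQF hQ with hQf
  have hB : Agent.Classical.BNondeg Qf := GeoClasses.bNondeg_toQF hQ
  have hn14 : 10 ≤ Module.finrank F (ι → F) := by
    rw [Module.finrank_fintype_fun_eq_card]
    omega
  set N := (Cfsg.Geo.subalgebraNormalizer K).comap (GeoClasses.oqToGL Qf) with hN
  set J := Matrix.toLin' a with hJdef
  -- membership in the normaliser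
  have hnorm : ∀ g : Agent.Classical.OQ Qf, g ∈ N ↔
      ∃ b c : F, ∀ x, g.1 (J x) = b • g.1 x + c • J (g.1 x) := by
    intro g
    rw [hN, Subgroup.mem_comap, MaxSub.mem_normalizer_iff_map_le]
    constructor
    · intro h
      obtain ⟨b, c, hbc⟩ := hspan _ (h a haK)
      refine ⟨b, c, fun x => ?_⟩
      have h' := congrArg (fun A => (A * (GeoClasses.oqToGL Qf g : Matrix ι ι F)) *ᵥ x) hbc
      simp only [mul_assoc, Units.inv_mul, mul_one, add_mul, smul_mul_assoc, one_mul,
        Matrix.add_mulVec, Matrix.smul_mulVec, ← Matrix.mulVec_mulVec,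
        GeoClasses.oqToGL_mulVec] at h'
      simpa [hJdef, Matrix.toLin'_apply] using h'
    · rintro ⟨b, c, h⟩ k hk
      obtain ⟨p, q, rfl⟩ := hspan k hk
      have e : (GeoClasses.oqToGL Qf g : Matrix ι ι F) * a =
          (b • 1 + c • a) * (GeoClasses.oqToGL Qf g : Matrix ι ι F) := by
        refine Matrix.ext_iff_mulVec.2 fun x => ?_
        simp only [← Matrix.mulVec_mulVec, Matrix.add_mulVec, Matrix.smul_mulVec,
          Matrix.one_mulVec, GeoClasses.oqToGL_mulVec]
        simpa [hJdef, Matrix.toLin'_apply] using h x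
      rw [mul_add, add_mul, Matrix.mul_smul, Matrix.mul_smul, mul_one, e, Matrix.smul_mul,
        Matrix.smul_mul, mul_assoc (b • 1 + c • a), Units.mul_inv, mul_one]
      exact add_mem (K.smul_mem K.one_mem p)
        (K.smul_mem (add_mem (K.smul_mem K.one_mem b) (K.smul_mem haK c)) q)
  -- the root elements
  have hroot : ∀ (u : ι → F) (hu : Qf u = 0) (t : F)
      (h : QuadraticMap.polar Qf u (t • J u) = 0),
      Agent.Classical.siegel Qf hu h ∈ N ⊓ commutator (Agent.Classical.OQ Qf) := by
    intro u hu t h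
    refine ⟨(hnorm _).2 ⟨0, 1, fun x => ?_⟩, GeoClasses.siegel_singular_mem_commutator hB
      (by omega) hu h (by simp [QuadraticMap.map_smul, hJ.scale, hu])⟩
    rw [zero_smul, zero_add, one_smul, Agent.Classical.siegel_apply, Agent.Classical.siegel_apply]
    simp only [map_add, map_sub, map_smul, hJ.sq, hJ.J_J, QuadraticMap.polar_smul_left,
      QuadraticMap.map_smul, hJ.scale, hu, smul_eq_mul, mul_zero, zero_mul, zero_smul, sub_zero]
    have e := hJ.left u x
    linear_combination (norm := module) t • (congrArg (fun z : F => z • J u) e)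
  have hmax : Cfsg.Geo.IsMaximalIn (commutator (Agent.Classical.OQ Qf))
      (N ⊓ commutator (Agent.Classical.OQ Qf)) := by
    refine ⟨lt_of_le_not_ge inf_le_right fun hle => ?_, fun M hM hMC => ?_⟩
    · obtain ⟨p, -, hp0, hpq⟩ := MaxSub.OrthOverfield.exists_sing_perp_not_mem hB hn14
        (⊥ : Submodule F (ι → F)) (by simp)
      have hp0' : p ≠ 0 := fun h => hp0 (h ▸ zero_mem _)
      obtain ⟨b, c, y, hb, hbc, hcq, -, -, hy, hgp, hgy⟩ :=
        MaxSub.OrthOverfield.exists_mover hB hn14 hJ hpq hp0'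
      obtain ⟨d, e, hde⟩ := (hnorm (Agent.Classical.siegel Qf hb hbc)).1
        (hle (GeoClasses.siegel_singular_mem_commutator hB (by omega) hb hbc hcq)).1
      obtain ⟨hpy, hJpy⟩ := MaxSub.OrthOverfield.OStr.mem_perp_kline.1 hy
      have h1 := hde p
      rw [hgp] at h1
      have h2 : QuadraticMap.polar Qf p ((Agent.Classical.siegel Qf hb hbc).1 y) = 0 := by
        have := Agent.Classical.OQ_polar (Agent.Classical.siegel Qf hb hbc) p y
        rwa [hgp, hpy] at this
      have h3 := Agent.Classical.OQ_polar (Agent.Classical.siegel Qf hb hbc) (J p) y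
      rw [h1, hJpy, QuadraticMap.polar_add_left, QuadraticMap.polar_smul_left,
        QuadraticMap.polar_smul_left, h2, smul_zero, zero_add, smul_eq_mul] at h3
      rw [(mul_eq_zero.1 h3).resolve_right hgy, zero_smul, add_zero] at h1
      have h4 : J p = d • p := (Agent.Classical.siegel Qf hb hbc).1.injective
        (by rw [h1, map_smul, hgp])
      exact neg_ne_zero.2 one_ne_zero (hJ.ind hp0' (a := d) (b := -1)
        (by rw [h4, neg_smul, one_smul, add_neg_cancel])).2
    · by_cases hMN : M ≤ N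
      · exact Or.inl (le_antisymm (le_inf hMN hMC) hM)
      obtain ⟨g, hgM, hgN⟩ := SetLike.not_le_iff_exists.1 hMN
      have hO : MaxSub.OrthOverfield.Over J α β M :=
        ⟨hJ, fun u hu => ⟨by rw [hJ.self, hu, mul_zero], fun t h => hM (hroot u hu t h)⟩⟩
      exact Or.inr (le_antisymm hMC
        (hO.commutator_le hB hn14 hgM fun h => hgN ((hnorm g).2 h)))
  have := GeoClasses.isMaximalIn_map (GeoClasses.oqToGL_injective Qf) hmax
  rw [Subgroup.map_inf _ _ _ (GeoClasses.oqToGL_injective Qf), GeoClasses.map_oqToGL_commutator,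
    hN, Subgroup.map_comap_eq] at this
  have hle : Cfsg.Geo.omegaGL Q ≤ (GeoClasses.oqToGL Qf).range := by
    have := GeoClasses.map_oqToGL_commutator Qf
    rw [hQf, GeoClasses.coe_toQF] at this
    exact this.symm.le.trans (Subgroup.map_le_range _ _)
  simp only [hQf, GeoClasses.coe_toQF] at this
  rwa [inf_comm (GeoClasses.oqToGL _).range, inf_assoc,
    inf_of_le_right (a := (GeoClasses.oqToGL _).range) (b := Cfsg.Geo.omegaGL Q) hle] at this

end Cfsg.Agent.MaxSub.OrthOverfield
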