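import Cfsg.Agent.MaxSub.OrthOverfield.Main
import Cfsg.Agent.MaxSub.FieldSub

/-!
A semisimilar quadratic overfield inside the matrix algebra gives an overfield structure.
-/

set_option autoImplicit false

namespace Cfsg.Agent.MaxSub.OrthOverfield

open Matrix Module Cfsg.Agent.Classical Cfsg.Geo
open scoped Matrix

variable {F : Type*} [Field F] {ι : Type} [Fintype ι] [DecidableEq ι]

theorem exists_ostr [Nonempty ι] {Q : (ι → F) → F} (hQ : IsNondegenerateQuadraticForm Q)
    {K : Subalgebra F (Matrix ι ι F)} (hK : IsFieldSubalgebra 2 K)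
    (hac : IsAdjointClosedFor (QuadraticMap.polar Q) K)
    (hnsa : ¬ IsSelfAdjointFor (QuadraticMap.polar Q) K)
    (hsc : ∀ k ∈ K, ∃ c : F, ∀ v : ι → F, Q (k *ᵥ v) = c * Q v) :
    ∃ (a : Matrix ι ι F) (α β : F), a ∈ K ∧
      OStr (GeoClasses.toQF hQ) (Matrix.toLin' a) α β ∧
      ∀ w ∈ K, ∃ s t : F, w = s • (1 : Matrix ι ι F) + t • a := by
  classical
  set Qf := GeoClasses.toQF hQ with hQf
  have hB : BNondeg Qf := GeoClasses.bNondeg_toQF hQ
  obtain ⟨v₀, hv₀⟩ := exists_ne (0 : ι → F)
  -- an element of `K` which is not scalar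
  obtain ⟨a, haK, ha⟩ : ∃ a ∈ K, ∀ s : F, a ≠ s • (1 : Matrix ι ι F) := by
    by_contra h
    push Not at h
    have hle : Subalgebra.toSubmodule K ≤ Submodule.span F {(1 : Matrix ι ι F)} := fun x hx => by
      obtain ⟨s, rfl⟩ := h x hx
      exact Submodule.smul_mem _ _ (Submodule.mem_span_singleton_self _)
    have h1 := Submodule.finrank_mono hle
    rw [finrank_span_singleton one_ne_zero, Subalgebra.finrank_toSubmodule, hK.finrank_eq] at h1
    omega
  have hind : ∀ p q : F, p • (1 : Matrix ι ι F) + q • a = 0 → p = 0 ∧ q = 0 := by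
    intro p q h
    by_cases hq : q = 0
    · rw [hq, zero_smul, add_zero] at h
      exact ⟨(smul_eq_zero.1 h).resolve_right one_ne_zero, hq⟩
    · refine absurd ?_ (ha (-p / q))
      apply smul_right_injective _ hq
      show q • a = q • ((-p / q) • (1 : Matrix ι ι F))
      rw [smul_smul, mul_div_cancel₀ _ hq]
      linear_combination (norm := module) h
  have hspan : ∀ w ∈ K, ∃ s t : F, w = s • (1 : Matrix ι ι F) + t • a := by
    have hle : Submodule.span F (Set.range ![1, a]) ≤ Subalgebra.toSubmodule K := by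
      rw [Submodule.span_le]
      rintro _ ⟨i, rfl⟩
      fin_cases i
      · exact K.one_mem
      · exact haK
    have hli : LinearIndependent F ![(1 : Matrix ι ι F), a] :=
      LinearIndependent.pair_iff.2 fun p q h => hind p q h
    haveI : FiniteDimensional F (Subalgebra.toSubmodule K) := inferInstance
    have he := Submodule.eq_of_le_of_finrank_eq hle (by
      rw [finrank_span_eq_card hli, Fintype.card_fin, Subalgebra.finrank_toSubmodule,
        hK.finrank_eq])
    intro w hw
    have : w ∈ Submodule.span F (Set.range ![(1 : Matrix ι ι F), a]) := he ▸ hw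
    obtain ⟨c, hc⟩ := (Submodule.mem_span_range_iff_exists_fun F).1 this
    exact ⟨c 0, c 1, by rw [← hc, Fin.sum_univ_two]; rfl⟩
  obtain ⟨β, α, hsq⟩ := hspan _ (K.mul_mem haK haK)
  have hsqv : ∀ v, a *ᵥ (a *ᵥ v) = β • v + α • (a *ᵥ v) := fun v => by
    rw [Matrix.mulVec_mulVec, hsq, Matrix.add_mulVec, Matrix.smul_mulVec, Matrix.smul_mulVec,
      Matrix.one_mulVec]
  have hirr : ∀ x : F, x * x ≠ α * x + β := by
    intro x hx
    obtain ⟨w, hwK, hw⟩ := hK.inv (a - x • 1) (K.sub_mem haK (K.smul_mem K.one_mem x))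
      (sub_ne_zero.2 (ha x))
    refine ha (α - x) (sub_eq_zero.1 ?_)
    have h0 : (a - x • (1 : Matrix ι ι F)) * (a - (α - x) • 1) = 0 := by
      simp only [sub_mul, mul_sub, smul_mul_assoc, mul_smul_comm, one_mul, mul_one, hsq]
      linear_combination (norm := module) (-hx) • (1 : Matrix ι ι F)
    have hw' : w * (a - x • 1) = 1 := by
      rw [← hK.comm _ (K.sub_mem haK (K.smul_mem K.one_mem x)) w hwK, hw]
    calc a - (α - x) • (1 : Matrix ι ι F) = w * (a - x • 1) * (a - (α - x) • 1) := by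
          rw [hw', one_mul]
      _ = 0 := by rw [mul_assoc, h0, mul_zero]
  -- the polar form as a bilinear map
  let B : (ι → F) → (ι → F) → F := fun u v => QuadraticMap.polar Qf u v
  have hBu : ∀ u, (∀ v, B u v = 0) → u = 0 := hB
  have hindB : ∀ p q : F, (∀ u v, p * B u v + q * B u (a *ᵥ v) = 0) → p = 0 ∧ q = 0 := by
    intro p q h
    refine hind p q (Matrix.ext_iff_mulVec.2 fun v => ?_)
    rw [Matrix.zero_mulVec]
    refine hBu _ fun u => ?_
    show QuadraticMap.polar Qf _ _ = 0
    rw [QuadraticMap.polar_comm, Matrix.add_mulVec, Matrix.smul_mulVec, Matrix.smul_mulVec,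
      Matrix.one_mulVec, QuadraticMap.polar_add_right, QuadraticMap.polar_smul_right,
      QuadraticMap.polar_smul_right, smul_eq_mul, smul_eq_mul]
    exact h u v
  obtain ⟨a', ha', hadj⟩ := hac a haK
  obtain ⟨s, t, rfl⟩ := hspan a' ha'
  have hadj' : ∀ u v, B (a *ᵥ u) v = s * B u v + t * B u (a *ᵥ v) := fun u v => by
    show QuadraticMap.polar Qf _ _ = s * QuadraticMap.polar Qf _ _ + t * QuadraticMap.polar Qf _ _
    have := hadj u v
    rw [Matrix.add_mulVec, Matrix.smul_mulVec, Matrix.smul_mulVec, Matrix.one_mulVec] at this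
    rw [hQf, GeoClasses.coe_toQF, this, hQ.polar_bilinear.add_right, hQ.polar_bilinear.smul_right,
      hQ.polar_bilinear.smul_right]
  have hcomm : ∀ u v, B u v = B v u := fun u v => QuadraticMap.polar_comm _ _ _
  obtain ⟨h1, h2⟩ := hindB (s * (1 + t)) (t * t - 1) fun u v => by
    have e1 := hadj' u v
    have e2 := hadj' v u
    rw [hcomm (a *ᵥ v), hcomm v u, hcomm v (a *ᵥ u)] at e2
    linear_combination -e2 - t * e1
  have ht : t = -1 := by
    rcases mul_self_eq_one_iff.1 (sub_eq_zero.1 h2) with h | h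
    · subst h
      by_cases h2F : (2 : F) = 0
      · linear_combination h2F
      · exfalso
        have hs : s = 0 := (mul_eq_zero.1 h1).resolve_right (by
          rw [show (1 : F) + 1 = 2 by ring]; exact h2F)
        refine hnsa fun k hk u v => ?_
        obtain ⟨p, q, rfl⟩ := hspan k hk
        have := hadj' u v
        rw [hs, zero_mul, zero_add, one_mul] at this
        simp only [Matrix.add_mulVec, Matrix.smul_mulVec, Matrix.one_mulVec,
          hQ.polar_bilinear.add_left, hQ.polar_bilinear.smul_left, hQ.polar_bilinear.add_right,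
          hQ.polar_bilinear.smul_right]
        rw [show QuadraticMap.polar Q (a *ᵥ u) v = QuadraticMap.polar Q u (a *ᵥ v) from this]
    · exact h
  subst ht
  obtain ⟨c, hc⟩ := hsc a haK
  have hpol : ∀ u v, B (a *ᵥ u) (a *ᵥ v) = c * B u v := by
    intro u v
    show Q (a *ᵥ u + a *ᵥ v) - Q (a *ᵥ u) - Q (a *ᵥ v) = c * (Q (u + v) - Q u - Q v)
    rw [← Matrix.mulVec_add, hc, hc, hc]
    ring
  obtain ⟨h3, h4⟩ := hindB (-β - c) (s - α) fun u v => by
    have e := hadj' u (a *ᵥ v)
    rw [hpol, hsqv] at e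
    have e' : B u (β • v + α • (a *ᵥ v)) = β * B u v + α * B u (a *ᵥ v) := by
      show QuadraticMap.polar Qf _ _ = _
      rw [QuadraticMap.polar_add_right, QuadraticMap.polar_smul_right,
        QuadraticMap.polar_smul_right, smul_eq_mul, smul_eq_mul]
    rw [e'] at e
    linear_combination -e
  have hsα : s = α := sub_eq_zero.1 h4
  have hcβ : c = -β := (sub_eq_zero.1 h3).symm
  obtain ⟨c', hc'⟩ := hsc (1 + a) (K.add_mem K.one_mem haK)
  have hself : ∀ v, B v (a *ᵥ v) = (c' - c - 1) * Q v := by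
    intro v
    show Q (v + a *ᵥ v) - Q v - Q (a *ᵥ v) = _
    have := hc' v
    rw [Matrix.add_mulVec, Matrix.one_mulVec] at this
    rw [this, hc]
    ring
  have hκ : c' - c - 1 = α := by
    by_contra hne
    refine hv₀ (hBu v₀ fun y => ?_)
    have e := hself (v₀ + y)
    have e1 := hadj' v₀ y
    have hBd : B (v₀ + y) (a *ᵥ (v₀ + y)) =
        B v₀ (a *ᵥ v₀) + B v₀ (a *ᵥ y) + B (a *ᵥ v₀) y + B y (a *ᵥ y) := by
      show QuadraticMap.polar Qf _ _ = _
      rw [Matrix.mulVec_add, QuadraticMap.polar_add_right, QuadraticMap.polar_add_left,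
        QuadraticMap.polar_add_left]
      simp only [B, QuadraticMap.polar_comm _ y (a *ᵥ v₀)]
      ring
    have hQd : Q (v₀ + y) = Q v₀ + Q y + B v₀ y := by
      show _ = _ + _ + (Q (v₀ + y) - Q v₀ - Q y)
      ring
    rw [hBd, hself, hself, hQd, e1, hsα] at e
    exact (mul_eq_zero.1 (show (c' - c - 1 - α) * B v₀ y = 0 by linear_combination -e)).resolve_left
      (sub_ne_zero.2 hne)
  refine ⟨a, α, β, haK, ⟨hirr, fun x => ?_, fun x => ?_, fun x => ?_⟩, hspan⟩
  · rw [Matrix.toLin'_apply, Matrix.toLin'_apply, hsqv, add_comm]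
  · rw [Matrix.toLin'_apply, hQf, GeoClasses.coe_toQF, hc, hcβ]
  · rw [Matrix.toLin'_apply]
    exact (hself x).trans (by rw [hκ]; rfl)

end Cfsg.Agent.MaxSub.OrthOverfield
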